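import Cfsg.Agent.Chars.Apps.PPrimeDegree
import Cfsg.Agent.Chars.Basic.Kernel
import Mathlib.GroupTheory.Sylow
import Mathlib.Order.Atoms.Finite

/-!
# Garrison's theorem: characters of larger degree and smaller kernel
-/

set_option autoImplicit false

namespace CfsgLib.Garrison

open Cfsg CfsgLib.Chars CfsgLib.Chars.Induced

universe u

variable {G : Type u} [Group G] [Finite G]

/-- A character with a constituent of at least its degree equals that constituent. -/
theorem eq_of_degree_le {H : Type u} [Group H] [Fintype H] {f : H → ℂ} (hf : IsCharacter H f)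
    (φ : IrrCharacter H) (hm : mult f φ ≠ 0) {d : ℕ} (hd : f 1 = d)
    (hle : d ≤ charDegree (φ : H → ℂ)) : f = φ := by
  classical
  obtain ⟨s, hs, hsum⟩ := exists_eq_sum_mult hf
  have h1 := congrFun hsum 1
  rw [hd, Finset.sum_apply] at h1
  simp only [Pi.smul_apply, smul_eq_mul, ← coe_charDegree] at h1
  simp only [← Nat.cast_mul, ← Nat.cast_sum, Nat.cast_inj] at h1
  have hφs : φ ∈ s := (hs φ).2 hm
  rw [← Finset.add_sum_erase _ _ hφs] at h1
  have hm1 : 1 ≤ mult f (φ : H → ℂ) := Nat.one_le_iff_ne_zero.2 hm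
  have h2 : charDegree (φ : H → ℂ) ≤ mult f (φ : H → ℂ) * charDegree (φ : H → ℂ) :=
    Nat.le_mul_of_pos_left _ hm1
  have hsE : s.erase φ = ∅ := by
    refine Finset.eq_empty_of_forall_notMem fun η hη => ?_
    have h3 := Finset.single_le_sum (f := fun η : IrrCharacter H =>
      mult f (η : H → ℂ) * charDegree (η : H → ℂ)) (fun _ _ => Nat.zero_le _) hη
    have h4 : 0 < mult f (η : H → ℂ) * charDegree (η : H → ℂ) := Nat.mul_pos
      (Nat.pos_of_ne_zero ((hs η).1 (Finset.mem_of_mem_erase hη))) (charDegree_pos η)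
    omega
  rw [hsE, Finset.sum_empty, add_zero] at h1
  have hm2 : mult f (φ : H → ℂ) = 1 := by
    apply Nat.eq_of_mul_eq_mul_right (charDegree_pos φ)
    omega
  have hseq : s = {φ} := by
    rw [← Finset.insert_erase hφs, hsE]
    rfl
  rw [hseq, Finset.sum_singleton, hm2, Nat.cast_one, one_smul] at hsum
  exact hsum

theorem exists_coe_degree {H : Type u} [Group H] [Finite H] (φ : IrrCharacter H) :
    (φ : H → ℂ) 1 = (charDegree (φ : H → ℂ) : ℂ) := (coe_charDegree φ).symm

/-- Restriction to a supplement of the kernel stays irreducible. -/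
theorem isIrrCharacter_restrict_of_sup (χ : IrrCharacter G) (H : Subgroup G)
    (h : charKer (χ : G → ℂ) ⊔ H = ⊤) : IsIrrCharacter H (fun x : H => (χ : G → ℂ) x) := by
  haveI := charKer_normal (isClassFunction_coe χ)
  obtain ⟨β, hβ⟩ := exists_inflate_eq (charKer (χ : G → ℂ)) χ le_rfl
  have hsurj : Function.Surjective
      ((QuotientGroup.mk' (charKer (χ : G → ℂ))).comp H.subtype) := by
    intro q
    obtain ⟨g, rfl⟩ := QuotientGroup.mk_surjective q
    have hg : g ∈ ((charKer (χ : G → ℂ) ⊔ H : Subgroup G) : Set G) := by rw [h]; trivial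
    rw [Subgroup.normal_mul] at hg
    obtain ⟨k, hk, x, hx, rfl⟩ := hg
    refine ⟨⟨x, hx⟩, ?_⟩
    show (QuotientGroup.mk x : G ⧸ charKer (χ : G → ℂ)) = QuotientGroup.mk (k * x)
    rw [QuotientGroup.mk_mul, (QuotientGroup.eq_one_iff k).2 hk, one_mul]
  have h2 := isIrrCharacter_comp β.2 _ hsurj
  convert h2 using 1
  funext x
  rw [← congrFun (congrArg Subtype.val hβ) (x : G)]
  rfl

/-- Garrison's argument. -/
theorem exists_larger (χ : IrrCharacter G) (M : Subgroup G) [M.Normal]
    (hKM : charKer (χ : G → ℂ) ≤ M)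
    (hmin : ∀ L : Subgroup G, L.Normal → charKer (χ : G → ℂ) ≤ L → L ≤ M →
      L = charKer (χ : G → ℂ) ∨ L = M)
    (p : ℕ) [Fact p.Prime] (P : Sylow p M)
    (hS : ¬ ((P : Subgroup M).map M.subtype).Normal)
    (hgen : charKer (χ : G → ℂ) ⊔
      Subgroup.normalizer (((P : Subgroup M).map M.subtype : Subgroup G) : Set G) = ⊤) :
    ∃ ψ : IrrCharacter G, charDegree (χ : G → ℂ) < charDegree (ψ : G → ℂ) ∧
      charKer (ψ : G → ℂ) < charKer (χ : G → ℂ) := by
  classical
  haveI : Fintype G := Fintype.ofFinite G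
  set K := charKer (χ : G → ℂ) with hKdef
  haveI : K.Normal := charKer_normal (isClassFunction_coe χ)
  set S := (P : Subgroup M).map M.subtype with hSdef
  have hNne : Subgroup.normalizer (S : Set G) ≠ ⊤ := fun e => hS (Subgroup.normalizer_eq_top_iff.1 e)
  obtain ⟨H, hH, hNH⟩ := (eq_top_or_exists_le_coatom _).resolve_left hNne
  haveI : Fintype H := Fintype.ofFinite H
  have hKH : K ⊔ H = ⊤ := top_le_iff.1 (hgen.ge.trans (sup_le_sup_left hNH K))
  let φ : IrrCharacter H := ⟨_, isIrrCharacter_restrict_of_sup χ H hKH⟩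
  have hφ : ∀ x : H, (φ : H → ℂ) x = (χ : G → ℂ) x := fun _ => rfl
  have hθ := isCharacter_indFun H (isCharacter_coe φ)
  by_contra hcon
  push Not at hcon
  -- every constituent restricts to `φ`
  have hall : ∀ ψ : IrrCharacter G, mult (indFun H (φ : H → ℂ)) ψ ≠ 0 →
      (fun x : H => (ψ : G → ℂ) x) = (φ : H → ℂ) := by
    intro ψ hψ
    rw [mult_indFun_irr] at hψ
    have hres := isCharacter_restrict (isCharacter_coe ψ) H
    refine eq_of_degree_le hres φ hψ (d := charDegree (ψ : G → ℂ))
      (by rw [coe_charDegree]; rfl) ?_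
    have hdeg : charDegree (φ : H → ℂ) = charDegree (χ : G → ℂ) := by
      apply charDegree_eq_of_map_one
      rw [hφ, coe_charDegree]; rfl
    rw [hdeg]
    by_contra hlt
    push Not at hlt
    apply hcon ψ hlt
    set L := charKer (ψ : G → ℂ)
    haveI : L.Normal := charKer_normal (isClassFunction_coe ψ)
    have hLH : L ≤ H := by
      by_contra hn
      have htop : L ⊔ H = ⊤ := hH.2 _ (lt_of_le_of_ne le_sup_right fun e => hn (e ▸ le_sup_left))
      let ψ' : IrrCharacter H := ⟨_, isIrrCharacter_restrict_of_sup ψ H htop⟩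
      have he : ψ' = φ := by
        by_contra hne
        exact hψ (by
          show mult (ψ' : H → ℂ) φ = 0
          rw [mult_irr, if_neg hne])
      have h1 := congrFun (congrArg Subtype.val he) 1
      simp only [ψ', hφ, OneMemClass.coe_one, ← coe_charDegree, Nat.cast_inj] at h1
      omega
    have hLK : L ≤ K := by
      intro x hx
      haveI : Fintype (L.subgroupOf H) := Fintype.ofFinite _
      let N := L.subgroupOf H
      obtain ⟨η, hη⟩ := exists_mult_ne_zero (isCharacter_restrict (isCharacter_coe φ) N)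
        (fun h0 => map_one_ne_zero φ (congrFun h0 1))
      have hle := mult_mul_mult_le_restrict N.subtype hres φ η
      have hpos : 0 < mult (fun x : H => (ψ : G → ℂ) x) φ *
          mult (fun n : N => (φ : H → ℂ) n) η :=
        Nat.mul_pos (Nat.pos_of_ne_zero hψ) (Nat.pos_of_ne_zero hη)
      have hconst : (fun n : N => (ψ : G → ℂ) ((n : H) : G)) =
          ((charDegree (ψ : G → ℂ) : ℂ)) • ((oneChar N : IrrCharacter N) : N → ℂ) := by
        funext n
        rw [Pi.smul_apply, oneChar_apply, smul_eq_mul, mul_one, coe_charDegree]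
        exact map_eq_map_one_of_mem_charKer n.2
      have hη1 : η = oneChar N := by
        by_contra hne
        simp only [Subgroup.coe_subtype] at hle
        have h0 : mult (fun n : N => (ψ : G → ℂ) ((n : H) : G)) η = 0 := by
          rw [hconst]
          apply Nat.cast_injective (R := ℂ)
          rw [← classInner_eq_mult (hconst ▸
            isCharacter_restrict hres N), CfsgLib.Chars.Induced.classInner_smul_left,
            classInner_irr_of_ne (Ne.symm hne), mul_zero, Nat.cast_zero]
        omega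
      have hx' := CfsgLib.Chars.Apps.eq_map_one_of_mult_oneChar N φ (hη1 ▸ hη) ⟨x, hLH hx⟩ hx
      rw [hφ, hφ] at hx'
      exact (mem_charKer_iff (isCharacter_coe χ)).2 hx'
    refine lt_of_le_of_ne hLK fun e => hH.1 ?_
    rw [← hKH]
    exact (sup_eq_right.2 (e ▸ hLH)).symm
  -- values of the induced character on `H`
  have hval : ∀ x : H, indFun H (φ : H → ℂ) (x : G) = (H.index : ℂ) * (χ : G → ℂ) x := by
    obtain ⟨s, hs, hsum⟩ := exists_eq_sum_mult hθ
    intro x
    have h1 := congrFun hsum (x : G)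
    have h2 := congrFun hsum 1
    rw [indFun_one_apply] at h2
    simp only [Finset.sum_apply, Pi.smul_apply, smul_eq_mul] at h1 h2
    rw [h1]
    rw [Finset.sum_congr rfl (g := fun ψ : IrrCharacter G =>
      (mult (indFun H (φ : H → ℂ)) (ψ : G → ℂ) : ℂ) * (χ : G → ℂ) x) (fun ψ hψ => by
        rw [show (ψ : G → ℂ) x = (χ : G → ℂ) x from congrFun (hall ψ ((hs ψ).1 hψ)) x]),
      ← Finset.sum_mul]
    rw [Finset.sum_congr rfl (g := fun ψ : IrrCharacter G =>
      (mult (indFun H (φ : H → ℂ)) (ψ : G → ℂ) : ℂ) * (χ : G → ℂ) 1) (fun ψ hψ => by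
        have := congrFun (hall ψ ((hs ψ).1 hψ)) 1
        rw [hφ, OneMemClass.coe_one] at this
        rw [this]), ← Finset.sum_mul, hφ, OneMemClass.coe_one] at h2
    rw [← mul_right_cancel₀ (map_one_ne_zero χ) h2]
  -- conjugates stay in `H`
  have hfact : ∀ x ∈ H, (χ : G → ℂ) x ≠ 0 → ∀ g : G, g * x * g⁻¹ ∈ H := by
    intro x hx hne g
    by_contra hg
    have h1 := hval ⟨x, hx⟩
    rw [indFun] at h1
    have hterm : ∀ y : G, extendByZero H (φ : H → ℂ) (y⁻¹ * x * y) =
        if y⁻¹ * x * y ∈ H then (χ : G → ℂ) x else 0 := by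
      intro y
      split_ifs with hy
      · rw [extendByZero_mem _ hy, hφ]
        have := isClassFunction_coe χ x y⁻¹
        rw [inv_inv] at this
        exact this
      · rw [extendByZero_notMem _ hy]
    simp only [Subgroup.coe_mk, hterm] at h1
    rw [← Finset.sum_filter, Finset.sum_const, nsmul_eq_mul] at h1
    have hc : ((Finset.univ.filter fun y : G => y⁻¹ * x * y ∈ H).card : ℂ) = (Nat.card G : ℂ) := by
      have hH0 : (Nat.card H : ℂ) ≠ 0 := Nat.cast_ne_zero.2 Nat.card_pos.ne'
      rw [inv_mul_eq_iff_eq_mul₀ hH0, ← mul_assoc] at h1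
      rw [mul_right_cancel₀ hne h1, ← Nat.cast_mul, Subgroup.card_mul_index]
    rw [Nat.cast_inj, Nat.card_eq_fintype_card] at hc
    have h3 := Finset.eq_univ_of_card _ hc
    have := (Finset.mem_filter.1 (h3.ge (Finset.mem_univ g⁻¹))).2
    rw [inv_inv] at this
    exact hg this
  -- the normal subgroup they generate
  set A : Set G := {x | x ∈ M ∧ x ∈ H ∧ (χ : G → ℂ) x ≠ 0}
  set W := Subgroup.closure A
  have hAconj : ∀ g : G, ∀ x ∈ A, g * x * g⁻¹ ∈ A := fun g x hx =>
    ⟨Subgroup.Normal.conj_mem ‹M.Normal› x hx.1 g, hfact x hx.2.1 hx.2.2 g, by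
      rw [isClassFunction_coe χ]; exact hx.2.2⟩
  haveI hW : W.Normal := by
    refine ⟨fun x hx g => ?_⟩
    have hle : W ≤ W.comap (MulAut.conj g).toMonoidHom :=
      (Subgroup.closure_le _).2 fun y hy => Subgroup.subset_closure (hAconj g y hy)
    exact hle hx
  have hWH : W ≤ H := (Subgroup.closure_le _).2 fun x hx => hx.2.1
  have hWM : W ≤ M := (Subgroup.closure_le _).2 fun x hx => hx.1
  have hKW : ∀ x ∈ K, x ∈ H → x ∈ W := fun x hxK hxH =>
    Subgroup.subset_closure ⟨hKM hxK, hxH, by
      rw [map_eq_map_one_of_mem_charKer hxK]; exact map_one_ne_zero χ⟩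
  have hWK : W ⊔ K = M := by
    rcases hmin (W ⊔ K) inferInstance le_sup_right (sup_le hWM hKM) with h | h
    · -- `χ` vanishes on `M` outside `K`
      rw [h]
      refine le_antisymm hKM ?_
      haveI : Fintype M := Fintype.ofFinite M
      have hvan : ∀ m ∈ M, m ∉ K → (χ : G → ℂ) m = 0 := by
        intro m hm hmK
        have hg : m ∈ ((K ⊔ H : Subgroup G) : Set G) := by rw [hKH]; trivial
        rw [Subgroup.normal_mul] at hg
        obtain ⟨k, hk, x, hx, rfl⟩ := hg
        rw [map_mul_of_mem_charKer hk]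
        by_contra hne
        apply hmK
        have hxM : x ∈ M := (Subgroup.mul_mem_cancel_left M (hKM hk)).1 hm
        have : x ∈ W ⊔ K := Subgroup.mem_sup_left (Subgroup.subset_closure ⟨hxM, hx, hne⟩)
        rw [h] at this
        exact mul_mem hk this
      intro m hm
      refine (mem_charKer_iff (isCharacter_coe χ)).2
        (CfsgLib.Chars.Apps.eq_map_one_of_mult_oneChar M χ ?_ m hm)
      rw [mult_ne_zero_iff (isCharacter_restrict (isCharacter_coe χ) M), classInner]
      refine mul_ne_zero (inv_ne_zero (Nat.cast_ne_zero.2 Nat.card_pos.ne')) ?_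
      rw [Finset.sum_congr rfl (g := fun n : M => if (n : G) ∈ K then (χ : G → ℂ) 1 else 0)
        (fun n _ => ?_), Finset.sum_ite, Finset.sum_const_zero, add_zero, Finset.sum_const,
        nsmul_eq_mul]
      · refine mul_ne_zero (Nat.cast_ne_zero.2 (Finset.card_ne_zero.2 ⟨1, ?_⟩)) (map_one_ne_zero χ)
        simp
      · rw [oneChar_apply, map_one, mul_one]
        split_ifs with hn
        · exact map_eq_map_one_of_mem_charKer hn
        · exact hvan n n.2 hn
    · exact h
  have hSH : S ≤ H := Subgroup.le_normalizer.trans hNH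
  have hSW : S ≤ W := by
    intro s hs
    have hsM : s ∈ M := Subgroup.map_subtype_le _ hs
    rw [← hWK, ← SetLike.mem_coe, Subgroup.mul_normal] at hsM
    obtain ⟨w, hw, k, hk, e⟩ := hsM
    have e' : w * k = s := e
    have hkH : k ∈ H := by
      have : k = w⁻¹ * s := by rw [← e', inv_mul_cancel_left]
      rw [this]
      exact mul_mem (inv_mem (hWH hw)) (hSH hs)
    rw [← e']
    exact mul_mem hw (hKW k hk hkH)
  -- Frattini
  let P' : Sylow p W := (P.comapOfInjective
    (Subgroup.inclusion hWM) (Subgroup.inclusion_injective hWM) (fun y hy => ⟨⟨(y : G), hSW ⟨y, hy, rfl⟩⟩, rfl⟩))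
  have hP' : (P' : Subgroup W).map W.subtype = S := by
    ext g
    constructor
    · rintro ⟨w, hw, rfl⟩
      exact ⟨_, hw, rfl⟩
    · rintro ⟨y, hy, rfl⟩
      exact ⟨⟨(y : G), hSW ⟨y, hy, rfl⟩⟩, hy, rfl⟩
  have hfr : Subgroup.normalizer (S : Set G) ⊔ W = ⊤ := hP' ▸ P'.normalizer_sup_eq_top
  exact hH.1 (top_le_iff.1 (hfr.ge.trans (sup_le hNH hWH)))

end CfsgLib.Garrison
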