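import Cfsg.Agent.Chars.Garrison.Basic
import Cfsg.Agent.Fitting.Join
import Cfsg.Agent.Solvable.MinNormal

/-!
# Garrison's theorem at the Fitting subgroup and the bound on the nilpotent length
-/

set_option autoImplicit false

namespace CfsgLib.Garrison

open Cfsg CfsgLib.Chars

universe u

variable {G : Type u} [Group G] [Finite G]

theorem exists_sylow_not_normal (M : Subgroup G) [M.Normal] (hM : ¬ M ≤ fittingSubgroup G) :
    ∃ (p : ℕ) (_ : Fact p.Prime) (P : Sylow p M), ¬ ((P : Subgroup M).map M.subtype).Normal := by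
  by_contra hcon
  push Not at hcon
  apply hM
  refine CfsgLib.Fitting.le_fittingSubgroup ‹_› ?_
  refine ((Group.isNilpotent_of_finite_tfae (G := M)).out 0 3).mpr ?_
  intro p hp P
  have h := hcon p hp P
  have h2 : (((P : Subgroup M).map M.subtype).comap M.subtype).Normal := h.comap _
  rwa [Subgroup.comap_map_eq_self_of_injective (Subgroup.subtype_injective M)] at h2

theorem garrison (χ : IrrCharacter G)
    (h : ¬ charKer (χ : G → ℂ) ≤ fittingSubgroup G ∨ (charKer (χ : G → ℂ) = fittingSubgroup G ∧
      (∀ [(charKer (χ : G → ℂ)).Normal], Group.IsSolvable (G ⧸ charKer (χ : G → ℂ))) ∧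
        charKer (χ : G → ℂ) ≠ ⊤)) :
    ∃ ψ : IrrCharacter G, charDegree (χ : G → ℂ) < charDegree (ψ : G → ℂ) ∧
      charKer (ψ : G → ℂ) < charKer (χ : G → ℂ) := by
  classical
  set K := charKer (χ : G → ℂ) with hKdef
  haveI : K.Normal := charKer_normal (isClassFunction_coe χ)
  rcases h with hnF | ⟨hKF, hsolv, hne⟩
  · obtain ⟨p, _, P, hP⟩ := exists_sylow_not_normal K hnF
    refine exists_larger χ K le_rfl (fun L _ h1 h2 => Or.inl (le_antisymm h2 h1)) p P hP ?_
    rw [← hKdef, sup_comm]
    exact P.normalizer_sup_eq_top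
  · haveI : Nontrivial (G ⧸ K) := QuotientGroup.nontrivial_iff.2 hne
    haveI : Group.IsSolvable (G ⧸ K) := hsolv
    have hsT : Group.IsSolvable (⊤ : Subgroup (G ⧸ K)) := inferInstance
    obtain ⟨Mb, q, k, -, hMn, hMne, hmin, -, hq, -, hMcard, -⟩ :=
      CfsgLib.Solvable.exists_minimal_normal_elementary_le (⊤ : Subgroup (G ⧸ K)) hsT top_ne_bot
    haveI := hMn
    haveI : Fact q.Prime := ⟨hq⟩
    set M := Mb.comap (QuotientGroup.mk' K)
    haveI : M.Normal := hMn.comap _
    have hKM : K ≤ M := by
      intro x hx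
      show (QuotientGroup.mk' K) x ∈ Mb
      rw [QuotientGroup.mk'_apply, (QuotientGroup.eq_one_iff x).2 hx]
      exact one_mem _
    have hminM : ∀ L : Subgroup G, L.Normal → K ≤ L → L ≤ M → L = K ∨ L = M := by
      intro L hL hKL hLM
      have hmap : (L.map (QuotientGroup.mk' K)).Normal :=
        hL.map _ (QuotientGroup.mk'_surjective K)
      have hcm : (L.map (QuotientGroup.mk' K)).comap (QuotientGroup.mk' K) = L := by
        rw [Subgroup.comap_map_eq, QuotientGroup.ker_mk', sup_eq_left.2 hKL]
      rcases hmin _ hmap (Subgroup.map_le_iff_le_comap.2 hLM) with e | e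
      · left
        rw [← hcm, e, MonoidHom.comap_bot, QuotientGroup.ker_mk']
      · right
        rw [← hcm, e]
    obtain ⟨P⟩ : Nonempty (Sylow q M) := inferInstance
    set S := (P : Subgroup M).map M.subtype with hSdef
    have hKS : K ⊔ S = M := by
      apply le_antisymm (sup_le hKM (Subgroup.map_subtype_le _))
      have hKMidx : K.relIndex M = q ^ k := by
        rw [← hMcard]
        have h1 : M.map (QuotientGroup.mk' K) = Mb :=
          Subgroup.map_comap_eq_self_of_surjective (QuotientGroup.mk'_surjective K) Mb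
        rw [← h1, ← Subgroup.relIndex_bot_left, ← Subgroup.relIndex_comap, MonoidHom.comap_bot,
          QuotientGroup.ker_mk']
      have d1 : (K ⊔ S).relIndex M ∣ q ^ k :=
        hKMidx ▸ Subgroup.relIndex_dvd_of_le_left M le_sup_left
      have d2 : (K ⊔ S).relIndex M ∣ S.relIndex M := Subgroup.relIndex_dvd_of_le_left M le_sup_right
      have hS' : S.relIndex M = (P : Subgroup M).index := by
        rw [Subgroup.relIndex, hSdef, ← Subgroup.comap_subtype,
          Subgroup.comap_map_eq_self_of_injective (Subgroup.subtype_injective M)]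
      rw [← Subgroup.relIndex_eq_one]
      refine Nat.eq_one_of_dvd_coprimes ?_ d1 (hS' ▸ d2)
      exact Nat.Coprime.pow_left _ ((hq.coprime_iff_not_dvd).2 P.not_dvd_index)
    have hSn : ¬ S.Normal := by
      intro hn
      have hSq : IsPGroup q S := P.2.map _
      have hle : S ≤ K := hKF ▸ CfsgLib.Fitting.le_fittingSubgroup hn hSq.isNilpotent
      have hMK : M = K := by rw [← hKS, sup_eq_left.2 hle]
      apply hMne
      rw [← Subgroup.map_comap_eq_self_of_surjective (QuotientGroup.mk'_surjective K) Mb]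
      show M.map _ = ⊥
      rw [hMK, Subgroup.map_eq_bot_iff, QuotientGroup.ker_mk']
    refine exists_larger χ M hKM hminM q P hSn ?_
    have h1 := P.normalizer_sup_eq_top
    rw [← top_le_iff, ← h1]
    refine sup_le le_sup_right ?_
    exact hKS.ge.trans (sup_le_sup_left Subgroup.le_normalizer K)

/-- The degrees. -/
abbrev degrees (G : Type u) [Group G] : Set ℕ :=
  {d : ℕ | ∃ χ : IrrCharacter G, charDegree (χ : G → ℂ) = d}

theorem finite_degrees : (degrees G).Finite :=
  (Set.finite_range fun χ : IrrCharacter G => charDegree (χ : G → ℂ)).subset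
    fun _ ⟨χ, h⟩ => ⟨χ, h⟩

theorem ncard_degrees_pos : 1 ≤ (degrees G).ncard := by
  rw [Nat.one_le_iff_ne_zero, Ne, Set.ncard_eq_zero finite_degrees]
  exact Set.nonempty_iff_ne_empty.1 ⟨_, oneChar G, rfl⟩

/-- Fewer degrees modulo the Fitting subgroup. -/
theorem degrees_lt (hsolv : Group.IsSolvable G) [(fittingSubgroup G).Normal]
    (hnn : fittingSubgroup G ≠ ⊤) :
    (degrees (G ⧸ fittingSubgroup G)).ncard < (degrees G).ncard := by
  refine Set.ncard_lt_ncard ?_ finite_degrees
  obtain ⟨d, ⟨χ, hχ⟩, hmax⟩ :=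
    Set.exists_max_image (degrees G) id finite_degrees ⟨_, oneChar G, rfl⟩
  refine (Set.ssubset_iff_of_subset ?_).2 ⟨d, ⟨χ, hχ⟩, ?_⟩
  · rintro e ⟨β, rfl⟩
    exact ⟨inflate _ β, charDegree_inflate _ β⟩
  · rintro ⟨β, hβ⟩
    have hFK : fittingSubgroup G ≤ charKer (inflate (fittingSubgroup G) β : G → ℂ) :=
      le_charKer_inflate _ β
    obtain ⟨ψ, hψ, -⟩ : ∃ ψ : IrrCharacter G,
        charDegree (inflate (fittingSubgroup G) β : G → ℂ) < charDegree (ψ : G → ℂ) ∧ True := by
      by_cases hK : charKer (inflate (fittingSubgroup G) β : G → ℂ) = fittingSubgroup G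
      · obtain ⟨ψ, h1, -⟩ := garrison (inflate (fittingSubgroup G) β)
          (Or.inr ⟨hK, fun {_} => by
            haveI := hsolv
            infer_instance, fun e => hnn (hK.symm.trans e)⟩)
        exact ⟨ψ, h1, trivial⟩
      · obtain ⟨ψ, h1, -⟩ := garrison (inflate (fittingSubgroup G) β)
          (Or.inl fun hle => hK (le_antisymm hle hFK))
        exact ⟨ψ, h1, trivial⟩
    rw [charDegree_inflate, hβ] at hψ
    exact absurd (hmax _ ⟨ψ, rfl⟩) (not_le.2 hψ)

/-- A normal series with nilpotent factors. -/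
def HasSeries (G : Type u) [Group G] (n : ℕ) : Prop :=
  ∃ N : ℕ → Subgroup G, N 0 = ⊥ ∧ N n = ⊤ ∧ Monotone N ∧ (∀ i, (N i).Normal) ∧
    ∀ i, ∀ _h : ((N i).subgroupOf (N (i + 1))).Normal,
      Group.IsNilpotent (↥(N (i + 1)) ⧸ (N i).subgroupOf (N (i + 1)))

theorem hasSeries_mono {n m : ℕ} (hnm : n ≤ m) (h : HasSeries G n) : HasSeries G m := by
  obtain ⟨N, h0, hn, hmono, hnorm, hnil⟩ := h
  exact ⟨N, h0, top_le_iff.1 (hn ▸ hmono hnm), hmono, hnorm, hnil⟩

theorem nilpotent_comap_quot {F : Subgroup G} [F.Normal] (A B : Subgroup (G ⧸ F))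
    [hA : (A.subgroupOf B).Normal]
    [((A.comap (QuotientGroup.mk' F)).subgroupOf (B.comap (QuotientGroup.mk' F))).Normal]
    (h : Group.IsNilpotent (↥B ⧸ A.subgroupOf B)) :
    Group.IsNilpotent (↥(B.comap (QuotientGroup.mk' F)) ⧸
      (A.comap (QuotientGroup.mk' F)).subgroupOf (B.comap (QuotientGroup.mk' F))) := by
  haveI := h
  let φ : ↥(B.comap (QuotientGroup.mk' F)) →* ↥B ⧸ A.subgroupOf B :=
    (QuotientGroup.mk' _).comp ((QuotientGroup.mk' F).subgroupComap B)
  have hker : φ.ker =
      (A.comap (QuotientGroup.mk' F)).subgroupOf (B.comap (QuotientGroup.mk' F)) := by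
    ext x
    rw [MonoidHom.mem_ker]
    exact QuotientGroup.eq_one_iff _
  let ψ := QuotientGroup.lift
    ((A.comap (QuotientGroup.mk' F)).subgroupOf (B.comap (QuotientGroup.mk' F))) φ hker.ge
  have hinj : Function.Injective ψ := by
    rw [← MonoidHom.ker_eq_bot_iff, eq_bot_iff]
    intro q hq
    obtain ⟨x, rfl⟩ := QuotientGroup.mk_surjective q
    rw [Subgroup.mem_bot, QuotientGroup.eq_one_iff, ← hker]
    exact hq
  exact Group.nilpotent_of_mulEquiv (MonoidHom.ofInjective hinj).symm

theorem hasSeries_degrees (hsolv : Group.IsSolvable G) : HasSeries G (degrees G).ncard := by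
  suffices key : ∀ (n : ℕ) (H : Type u) [Group H] [Finite H], Nat.card H = n →
      Group.IsSolvable H → HasSeries H (degrees H).ncard from key _ G rfl hsolv
  clear hsolv
  intro n
  induction n using Nat.strong_induction_on with
  | _ n ih =>
  intro H _ _ hn hsolv
  classical
  haveI hFn : (fittingSubgroup H).Normal := CfsgLib.Fitting.fittingSubgroup_normal H
  have hFnil := CfsgLib.Fitting.fittingSubgroup_isNilpotent H
  by_cases hF : fittingSubgroup H = ⊤
  · refine hasSeries_mono ncard_degrees_pos ⟨fun i => if i = 0 then ⊥ else ⊤, rfl, rfl, ?_, ?_, ?_⟩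
    · intro i j hij
      by_cases hi : i = 0
      · simp [hi]
      · simp [hi, show j ≠ 0 by omega]
    · intro i; beta_reduce; split_ifs <;> infer_instance
    · intro i hnorm
      haveI := hnorm
      rw [hF] at hFnil
      have h1 : Group.IsNilpotent ↥(if i + 1 = 0 then (⊥ : Subgroup H) else ⊤) := by
        rw [if_neg (Nat.succ_ne_zero i)]; exact hFnil
      exact Group.nilpotent_of_surjective (QuotientGroup.mk' _) (QuotientGroup.mk'_surjective _)
  haveI : Group.IsSolvable H := hsolv
  have hFne : fittingSubgroup H ≠ ⊥ := by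
    intro hbot
    rcases subsingleton_or_nontrivial H with hs | hnt
    · exact hF (Subsingleton.elim _ _)
    obtain ⟨M, q, k, -, hMn, hMne, -, hM⟩ := CfsgLib.Solvable.exists_minimal_normal_elementary_le
      (⊤ : Subgroup H) inferInstance top_ne_bot
    obtain ⟨hMab, -, -, -, -⟩ := hM
    haveI := hMab
    exact hMne (le_bot_iff.1 (hbot ▸ CfsgLib.Fitting.le_fittingSubgroup hMn (by
      letI : CommGroup M := { (inferInstance : Group M) with mul_comm := fun a b => hMab.is_comm.comm a b }
      exact CommGroup.isNilpotent)))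
  have hlt : Nat.card (H ⧸ fittingSubgroup H) < n := by
    rw [← hn, ← (fittingSubgroup H).index_mul_card, ← Subgroup.index_eq_card]
    refine lt_mul_of_one_lt_right (Nat.pos_of_ne_zero Subgroup.index_ne_zero_of_finite) ?_
    exact (Subgroup.one_lt_card_iff_ne_bot _).2 hFne
  have hser := hasSeries_mono (Nat.le_sub_one_of_lt (degrees_lt hsolv hF))
    (ih _ hlt (H ⧸ fittingSubgroup H) rfl inferInstance)
  obtain ⟨N, h0, hm, hmono, hnorm, hnil⟩ := hser
  set m := (degrees H).ncard - 1
  have hm1 : (degrees H).ncard = m + 1 := by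
    have := ncard_degrees_pos (G := H); omega
  rw [hm1]
  refine ⟨fun i => Nat.casesOn i ⊥ fun j => (N j).comap (QuotientGroup.mk' (fittingSubgroup H)),
    rfl, ?_, ?_, ?_, ?_⟩
  · show (N m).comap _ = ⊤
    rw [hm, Subgroup.comap_top]
  · refine monotone_nat_of_le_succ fun i => ?_
    cases i with
    | zero => exact bot_le
    | succ j => exact Subgroup.comap_mono (hmono (Nat.le_succ j))
  · intro i
    cases i with
    | zero => exact inferInstanceAs (⊥ : Subgroup H).Normal
    | succ j => exact (hnorm j).comap _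
  · intro i hn'
    cases i with
    | zero =>
      haveI := hn'
      have he : (N 0).comap (QuotientGroup.mk' (fittingSubgroup H)) = fittingSubgroup H := by
        rw [h0, MonoidHom.comap_bot, QuotientGroup.ker_mk']
      have h1 : Group.IsNilpotent ↥((N 0).comap (QuotientGroup.mk' (fittingSubgroup H))) := by
        rw [he]; exact hFnil
      exact Group.nilpotent_of_surjective (QuotientGroup.mk' _) (QuotientGroup.mk'_surjective _)
    | succ j =>
      haveI := hn'
      haveI := hnorm j
      exact nilpotent_comap_quot (N j) (N (j + 1)) (hnil j inferInstance)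

end CfsgLib.Garrison
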